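import Mathlib

/-!
# Invariant forms of irreducible abelian groups
-/

set_option autoImplicit false
set_option linter.unusedSectionVars false

namespace CfsgLib.CoprimeForms

variable {F : Type*} [Field F] [Fintype F] {K : Type*} [Field K] [Finite K] [Algebra F K]
  {H : Type*} [CommGroup H] [Finite H] (u : H →* K) (hu : Function.Injective u)
  (hgen : Algebra.adjoin F (Set.range u) = ⊤)

omit [Fintype F] [Finite K] in
/-- An algebra map agreeing on the generators. -/
theorem algHom_ext_range (hgen : Algebra.adjoin F (Set.range u) = ⊤) {f g : K →ₐ[F] K}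
    (h : ∀ a, f (u a) = g (u a)) : f = g :=
  AlgHom.ext_of_adjoin_eq_top hgen (fun x hx => by obtain ⟨a, rfl⟩ := hx; exact h a)

theorem pow_frobenius (i : ℕ) (x : K) :
    (FiniteField.frobeniusAlgHom F K ^ i) x = x ^ Fintype.card F ^ i := by
  induction i generalizing x with
  | zero => simp
  | succ i ih =>
    rw [pow_succ', AlgHom.mul_apply, ih, FiniteField.coe_frobeniusAlgHom]
    show (x ^ _) ^ _ = _
    rw [← pow_mul, ← pow_succ]

include hu hgen

/-- The adjoint of an invariant form on the field is a field automorphism inverting the group. -/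
theorem exists_adjoint (b : K →ₗ[F] K →ₗ[F] F) (hb : ∀ x, (∀ y, b x y = 0) → x = 0)
    (hinv : ∀ h x y, b (u h * x) (u h * y) = b x y) :
    ∃ σ : K →ₐ[F] K, ∀ h, σ (u h) = u h⁻¹ := by
  have huniq : ∀ d : K, (∀ x y, b x (d * y) = 0) → d = 0 := by
    intro d hd
    by_contra hne
    exact one_ne_zero (hb 1 fun y => by have := hd 1 (d⁻¹ * y); rwa [mul_inv_cancel_left₀ hne] at this)
  have huniq' : ∀ d d' : K, (∀ x y, b x (d * y) = b x (d' * y)) → d = d' := fun d d' h =>
    sub_eq_zero.1 (huniq _ fun x y => by rw [sub_mul, map_sub, h, sub_self])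
  have hu' : ∀ h x y, b (u h * x) y = b x (u h⁻¹ * y) := fun h x y => by
    conv_rhs => rw [← hinv h]
    rw [← mul_assoc, ← map_mul, mul_inv_cancel, map_one, one_mul]
  have hex : ∀ a : K, ∃ s, ∀ x y, b (a * x) y = b x (s * y) := by
    intro a
    have ha : a ∈ Algebra.adjoin F (Set.range u) := hgen ▸ Algebra.mem_top
    induction ha using Algebra.adjoin_induction with
    | mem x hx => obtain ⟨h, rfl⟩ := hx; exact ⟨_, hu' h⟩
    | algebraMap r => exact ⟨algebraMap F K r, fun x y => by simp [← Algebra.smul_def]⟩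
    | add x y _ _ hx hy =>
      obtain ⟨s, hs⟩ := hx
      obtain ⟨t, ht⟩ := hy
      exact ⟨s + t, fun a c => by simp [add_mul, hs, ht]⟩
    | mul x y _ _ hx hy =>
      obtain ⟨s, hs⟩ := hx
      obtain ⟨t, ht⟩ := hy
      exact ⟨s * t, fun a c => by rw [mul_assoc, hs, ht, ← mul_assoc, mul_comm t s]⟩
  choose f hf using hex
  refine ⟨{ toFun := f
            map_one' := huniq' _ _ fun x y => by rw [← hf, one_mul, one_mul]
            map_mul' := fun a c => huniq' _ _ fun x y => by
              rw [← hf, mul_assoc, hf, hf, ← mul_assoc, mul_comm (f c)]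
            map_zero' := huniq' _ _ fun x y => by rw [← hf]; simp
            map_add' := fun a c => huniq' _ _ fun x y => by
              rw [← hf, add_mul, map_add, LinearMap.add_apply, hf, hf, ← map_add, ← add_mul]
            commutes' := fun r => huniq' _ _ fun x y => by rw [← hf]; simp [← Algebra.smul_def] },
    fun h => huniq' _ _ fun x y => ((hf _ x y).symm.trans (hu' h x y))⟩

theorem card_le_two_of_sq (h : ∀ a, u a * u a = 1) : Nat.card H ≤ 2 := by
  classical
  haveI : Fintype H := Fintype.ofFinite H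
  rw [Nat.card_eq_fintype_card, ← Finset.card_univ]
  refine le_trans (Finset.card_le_card_of_injOn u (t := ({1, -1} : Finset K)) (fun a _ => ?_) hu.injOn) ?_
  · simpa using mul_self_eq_one_iff.1 (h a)
  · exact Finset.card_le_two

/-- The forms invariant under an irreducible abelian group. -/
theorem forms_iff :
    (Module.finrank F K = 1 → (∃ b : K →ₗ[F] K →ₗ[F] F, (∀ x, (∀ y, b x y = 0) → x = 0) ∧
      ∀ h x y, b (u h * x) (u h * y) = b x y) → Nat.card H ≤ 2) ∧
    (2 ≤ Module.finrank F K → ((∃ b : K →ₗ[F] K →ₗ[F] F, (∀ x, (∀ y, b x y = 0) → x = 0) ∧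
      ∀ h x y, b (u h * x) (u h * y) = b x y) ↔
        (Even (Module.finrank F K) ∧ Nat.card H ∣ Fintype.card F ^ (Module.finrank F K / 2) + 1))) := by
  classical
  refine ⟨?_, fun h2 => ⟨?_, ?_⟩⟩
  · rintro h1 ⟨b, hb, hinv⟩
    obtain ⟨σ, hσ⟩ := exists_adjoint u hu hgen b hb hinv
    refine card_le_two_of_sq u hu hgen fun a => ?_
    have hall : ∀ x : K, σ x = x := fun x => by
      obtain ⟨c, rfl⟩ := (finrank_eq_one_iff_of_nonzero' (1 : K) one_ne_zero).1 h1 x
      rw [map_smul, map_one]
    have h' : u a⁻¹ = u a := (hσ a).symm.trans (hall _)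
    nth_rewrite 2 [← h']
    rw [← map_mul, mul_inv_cancel, map_one]
  · rintro ⟨b, hb, hinv⟩
    obtain ⟨σ, hσ⟩ := exists_adjoint u hu hgen b hb hinv
    obtain ⟨⟨i, hi⟩, hiσ⟩ := (FiniteField.bijective_frobeniusAlgHom_pow F K).2 σ
    simp only at hiσ
    have hsq : FiniteField.frobeniusAlgHom F K ^ (i + i) = 1 := by
      rw [pow_add, hiσ]
      exact algHom_ext_range u hgen fun a => by rw [AlgHom.mul_apply, hσ, hσ, inv_inv]; rfl
    have hd := orderOf_dvd_of_pow_eq_one hsq
    rw [FiniteField.orderOf_frobeniusAlgHom] at hd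
    have hi0 : i ≠ 0 := by
      rintro rfl
      rw [pow_zero] at hiσ
      have hbot : Algebra.adjoin F (Set.range u) ≤ ⊥ := by
        refine Algebra.adjoin_le ?_
        rintro _ ⟨a, rfl⟩
        have h := hσ a
        rw [← hiσ, AlgHom.one_apply] at h
        have h' : u a * u a = 1 := by
          conv_lhs => arg 2; rw [h]
          rw [← map_mul, mul_inv_cancel, map_one]
        rcases mul_self_eq_one_iff.1 h' with e | e <;> rw [e]
        · exact Subalgebra.one_mem _
        · exact Subalgebra.neg_mem _ (Subalgebra.one_mem _)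
      rw [hgen, top_le_iff] at hbot
      have := Subalgebra.bot_eq_top_iff_finrank_eq_one.1 hbot
      omega
    obtain ⟨c, hc⟩ := hd
    have hc1 : c = 1 := by
      rcases c with _ | _ | c
      · omega
      · rfl
      · exfalso; nlinarith
    rw [hc1, mul_one] at hc
    refine ⟨⟨i, hc.symm⟩, ?_⟩
    rw [show Module.finrank F K / 2 = i by omega]
    haveI : IsCyclic H := isCyclic_of_injective_ringHom u hu
    obtain ⟨g, hg⟩ := IsCyclic.exists_generator (α := H)
    rw [← orderOf_eq_card_of_forall_mem_zpowers hg]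
    refine orderOf_dvd_of_pow_eq_one (hu ?_)
    have := hσ g
    rw [← hiσ, pow_frobenius, ← map_pow] at this
    rw [pow_succ, map_mul, this, ← map_mul, inv_mul_cancel]
  · rintro ⟨⟨i, hi⟩, hdvd⟩
    rw [show Module.finrank F K / 2 = i by omega] at hdvd
    obtain ⟨f, hf⟩ : ∃ f : K →ₗ[F] F, f 1 ≠ 0 := by
      by_contra hcon
      push Not at hcon
      exact one_ne_zero ((Module.forall_dual_apply_eq_zero_iff F (1 : K)).1 hcon)
    set σ := FiniteField.frobeniusAlgHom F K ^ i
    refine ⟨(LinearMap.mul F K).compr₂ f |>.compl₂ σ.toLinearMap, fun x h => ?_, fun a x y => ?_⟩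
    · by_contra hne
      obtain ⟨y, hy⟩ := (Finite.injective_iff_surjective.1 σ.toRingHom.injective) x⁻¹
      have h' := h y
      simp only [LinearMap.compl₂_apply, LinearMap.compr₂_apply, LinearMap.mul_apply', AlgHom.toLinearMap_apply] at h'
      rw [show σ y = x⁻¹ from hy, mul_inv_cancel₀ hne] at h'
      exact hf h'
    · simp only [LinearMap.compl₂_apply, LinearMap.compr₂_apply, LinearMap.mul_apply', AlgHom.toLinearMap_apply,
        map_mul]
      have h1 : u a * σ (u a) = 1 := by
        rw [show σ (u a) = u a ^ Fintype.card F ^ i from pow_frobenius i _, ← pow_succ', ← map_pow,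
          orderOf_dvd_iff_pow_eq_one.1 ((orderOf_dvd_natCard a).trans hdvd), map_one]
      congr 1
      linear_combination (x * σ y) * h1

end CfsgLib.CoprimeForms
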