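import Mathlib

/-!
# Splitting a form invariant under a coprime group into an alternating and a symmetric piece
-/

set_option autoImplicit false
set_option linter.unusedSectionVars false

namespace CfsgLib.CoprimeForms

variable {F : Type*} [Field F] {G : Type*} [Group G] {V : Type*} [AddCommGroup V] [Module F V]
  [FiniteDimensional F V] (ρ : Representation F G V)

/-- An invariant subspace. -/
def Inv (X : Submodule F V) : Prop := ∀ g : G, ∀ x ∈ X, ρ g x ∈ X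

/-- An irreducible invariant subspace. -/
def Irr (X : Submodule F V) : Prop :=
  Inv ρ X ∧ X ≠ ⊥ ∧ ∀ U : Submodule F V, Inv ρ U → U ≤ X → U = ⊥ ∨ U = X

/-- An invariant subspace with a nondegenerate alternating part and a nondegenerate symmetric part. -/
def Split (p : ℕ) (X : Submodule F V) : Prop :=
  ∃ U W : Submodule F V, U ⊓ W = ⊥ ∧ U ⊔ W = X ∧ Inv ρ U ∧ Inv ρ W ∧
    (∃ A : LinearMap.BilinForm F V, (∀ x : V, A x x = 0) ∧
      (∀ g : G, ∀ x ∈ U, ∀ y ∈ U, A (ρ g x) (ρ g y) = A x y) ∧ ∀ x ∈ U, (∀ y ∈ U, A x y = 0) → x = 0) ∧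
    (∃ S : LinearMap.BilinForm F V, (∀ x y : V, S x y = S y x) ∧
      (∀ g : G, ∀ x ∈ W, ∀ y ∈ W, S (ρ g x) (ρ g y) = S x y) ∧ ∀ x ∈ W, (∀ y ∈ W, S x y = 0) → x = 0) ∧
    (p = 2 → ∀ g : G, ∀ w ∈ W, ρ g w = w)

theorem exists_proj {P T : Submodule F V} (h : P ⊓ T = ⊥) :
    ∃ q : V →ₗ[F] V, (∀ x ∈ P, q x = x) ∧ (∀ y ∈ T, q y = 0) ∧ ∀ v, q v ∈ P := by
  obtain ⟨f, hf⟩ := (T.mkQ.comp P.subtype).exists_leftInverse_of_injective (LinearMap.ker_eq_bot'.2 fun x hx =>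
    Subtype.ext ((Submodule.mem_bot F).1 (h ▸ ⟨x.2, (Submodule.Quotient.mk_eq_zero T).1 hx⟩)))
  refine ⟨P.subtype.comp (f.comp T.mkQ), fun x hx => ?_, fun y hy => ?_, fun v => (f (T.mkQ v)).2⟩
  · have := congrArg Subtype.val (LinearMap.congr_fun hf ⟨x, hx⟩)
    exact this
  · simp [(Submodule.Quotient.mk_eq_zero T).2 hy]

theorem inv_bot : Inv ρ (⊥ : Submodule F V) := fun g x hx => by
  rw [Submodule.mem_bot] at hx ⊢
  rw [hx, map_zero]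

theorem fixed_bot (g : G) {w : V} (hw : w ∈ (⊥ : Submodule F V)) : ρ g w = w := by
  rw [Submodule.mem_bot] at hw
  rw [hw, map_zero]

theorem split_bot (p : ℕ) : Split ρ p (⊥ : Submodule F V) :=
  ⟨⊥, ⊥, by simp, by simp, inv_bot ρ, inv_bot ρ,
    ⟨0, fun x => by simp, fun g x _ y _ => by simp, fun x hx _ => (Submodule.mem_bot F).1 hx⟩,
    ⟨0, fun x y => by simp, fun g x _ y _ => by simp, fun x hx _ => (Submodule.mem_bot F).1 hx⟩,
    fun _ g w hw => fixed_bot ρ g hw⟩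

theorem split_sup {p : ℕ} {P T : Submodule F V} (h : P ⊓ T = ⊥) (hP : Split ρ p P) (hT : Split ρ p T) :
    Split ρ p (P ⊔ T) := by
  obtain ⟨U₁, W₁, hd₁, hs₁, hU₁, hW₁, ⟨A₁, hA₁, hAi₁, hAn₁⟩, ⟨S₁, hS₁, hSi₁, hSn₁⟩, h2₁⟩ := hP
  obtain ⟨U₂, W₂, hd₂, hs₂, hU₂, hW₂, ⟨A₂, hA₂, hAi₂, hAn₂⟩, ⟨S₂, hS₂, hSi₂, hSn₂⟩, h2₂⟩ := hT
  obtain ⟨q, hq, hq0, -⟩ := exists_proj h
  obtain ⟨r, hr, hr0, -⟩ := exists_proj (P := T) (T := P) (by rw [inf_comm]; exact h)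
  have hU₁P : U₁ ≤ P := hs₁ ▸ le_sup_left
  have hW₁P : W₁ ≤ P := hs₁ ▸ le_sup_right
  have hU₂T : U₂ ≤ T := hs₂ ▸ le_sup_left
  have hW₂T : W₂ ≤ T := hs₂ ▸ le_sup_right
  have hcomp : ∀ a ∈ P, ∀ b ∈ T, q (a + b) = a ∧ r (a + b) = b := fun a ha b hb =>
    ⟨by rw [map_add, hq a ha, hq0 b hb, add_zero], by rw [map_add, hr b hb, hr0 a ha, zero_add]⟩
  have hinv : ∀ {U W : Submodule F V}, Inv ρ U → Inv ρ W → Inv ρ (U ⊔ W) := by
    intro U W hU hW g x hx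
    obtain ⟨a, ha, b, hb, rfl⟩ := Submodule.mem_sup.1 hx
    rw [map_add]
    exact Submodule.add_mem_sup (hU g a ha) (hW g b hb)
  refine ⟨U₁ ⊔ U₂, W₁ ⊔ W₂, ?_, by rw [sup_sup_sup_comm, hs₁, hs₂], hinv hU₁ hU₂, hinv hW₁ hW₂,
    ⟨A₁.compl₁₂ q q + A₂.compl₁₂ r r, fun x => by simp [hA₁, hA₂], ?_, ?_⟩,
    ⟨S₁.compl₁₂ q q + S₂.compl₁₂ r r, fun x y => by simp [hS₁ (q x) (q y), hS₂ (r x) (r y)], ?_, ?_⟩, ?_⟩
  · rw [eq_bot_iff]
    rintro x ⟨hxU, hxW⟩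
    obtain ⟨a, ha, b, hb, rfl⟩ := Submodule.mem_sup.1 hxU
    obtain ⟨c, hc, d, hd, he⟩ := Submodule.mem_sup.1 hxW
    obtain ⟨e1, e2⟩ := hcomp a (hU₁P ha) b (hU₂T hb)
    obtain ⟨f1, f2⟩ := hcomp c (hW₁P hc) d (hW₂T hd)
    rw [he] at f1 f2
    have ha0 : a = 0 := (Submodule.mem_bot F).1 (hd₁ ▸ ⟨ha, (e1.symm.trans f1) ▸ hc⟩)
    have hb0 : b = 0 := (Submodule.mem_bot F).1 (hd₂ ▸ ⟨hb, (e2.symm.trans f2) ▸ hd⟩)
    simp [ha0, hb0]
  · intro g x hx y hy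
    obtain ⟨a, ha, b, hb, rfl⟩ := Submodule.mem_sup.1 hx
    obtain ⟨c, hc, d, hd, rfl⟩ := Submodule.mem_sup.1 hy
    obtain ⟨e1, e2⟩ := hcomp a (hU₁P ha) b (hU₂T hb)
    obtain ⟨f1, f2⟩ := hcomp c (hU₁P hc) d (hU₂T hd)
    obtain ⟨e1', e2'⟩ := hcomp _ (hU₁P (hU₁ g a ha)) _ (hU₂T (hU₂ g b hb))
    obtain ⟨f1', f2'⟩ := hcomp _ (hU₁P (hU₁ g c hc)) _ (hU₂T (hU₂ g d hd))
    simp only [LinearMap.add_apply, LinearMap.compl₁₂_apply]
    rw [map_add (ρ g) a b, map_add (ρ g) c d, e1, e2, f1, f2, e1', e2', f1', f2', hAi₁ g a ha c hc,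
      hAi₂ g b hb d hd]
  · intro x hx h0
    obtain ⟨a, ha, b, hb, rfl⟩ := Submodule.mem_sup.1 hx
    obtain ⟨e1, e2⟩ := hcomp a (hU₁P ha) b (hU₂T hb)
    have ha0 : a = 0 := hAn₁ a ha fun c hc => by
      have := h0 c (Submodule.mem_sup_left hc)
      rw [LinearMap.add_apply, LinearMap.add_apply, LinearMap.compl₁₂_apply, LinearMap.compl₁₂_apply, e1, e2,
        hq c (hU₁P hc), hr0 c (hU₁P hc), map_zero, add_zero] at this
      exact this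
    have hb0 : b = 0 := hAn₂ b hb fun c hc => by
      have := h0 c (Submodule.mem_sup_right hc)
      rw [LinearMap.add_apply, LinearMap.add_apply, LinearMap.compl₁₂_apply, LinearMap.compl₁₂_apply, e1, e2,
        hr c (hU₂T hc), hq0 c (hU₂T hc), map_zero, zero_add] at this
      exact this
    rw [ha0, hb0, add_zero]
  · intro g x hx y hy
    obtain ⟨a, ha, b, hb, rfl⟩ := Submodule.mem_sup.1 hx
    obtain ⟨c, hc, d, hd, rfl⟩ := Submodule.mem_sup.1 hy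
    obtain ⟨e1, e2⟩ := hcomp a (hW₁P ha) b (hW₂T hb)
    obtain ⟨f1, f2⟩ := hcomp c (hW₁P hc) d (hW₂T hd)
    obtain ⟨e1', e2'⟩ := hcomp _ (hW₁P (hW₁ g a ha)) _ (hW₂T (hW₂ g b hb))
    obtain ⟨f1', f2'⟩ := hcomp _ (hW₁P (hW₁ g c hc)) _ (hW₂T (hW₂ g d hd))
    simp only [LinearMap.add_apply, LinearMap.compl₁₂_apply]
    rw [map_add (ρ g) a b, map_add (ρ g) c d, e1, e2, f1, f2, e1', e2', f1', f2', hSi₁ g a ha c hc,
      hSi₂ g b hb d hd]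
  · intro x hx h0
    obtain ⟨a, ha, b, hb, rfl⟩ := Submodule.mem_sup.1 hx
    obtain ⟨e1, e2⟩ := hcomp a (hW₁P ha) b (hW₂T hb)
    have ha0 : a = 0 := hSn₁ a ha fun c hc => by
      have := h0 c (Submodule.mem_sup_left hc)
      rw [LinearMap.add_apply, LinearMap.add_apply, LinearMap.compl₁₂_apply, LinearMap.compl₁₂_apply, e1, e2,
        hq c (hW₁P hc), hr0 c (hW₁P hc), map_zero, add_zero] at this
      exact this
    have hb0 : b = 0 := hSn₂ b hb fun c hc => by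
      have := h0 c (Submodule.mem_sup_right hc)
      rw [LinearMap.add_apply, LinearMap.add_apply, LinearMap.compl₁₂_apply, LinearMap.compl₁₂_apply, e1, e2,
        hr c (hW₂T hc), hq0 c (hW₂T hc), map_zero, zero_add] at this
      exact this
    rw [ha0, hb0, add_zero]
  · intro hp g w hw
    obtain ⟨a, ha, b, hb, rfl⟩ := Submodule.mem_sup.1 hw
    rw [map_add, h2₁ hp g a ha, h2₂ hp g b hb]

/-- An invariant complement in coprime characteristic. -/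
theorem exists_compl [Fintype G] (hG : (Fintype.card G : F) ≠ 0) {L X : Submodule F V} (hL : Inv ρ L)
    (hX : Inv ρ X) (hLX : L ≤ X) : ∃ C, Inv ρ C ∧ C ≤ X ∧ L ⊓ C = ⊥ ∧ L ⊔ C = X := by
  obtain ⟨q, hq, -, hqL⟩ := exists_proj (P := L) (T := ⊥) (inf_bot_eq _)
  set π : V →ₗ[F] V := (Fintype.card G : F)⁻¹ • ∑ g : G, (ρ g).comp (q.comp (ρ g⁻¹)) with hπ
  have hπL : ∀ v, π v ∈ L := fun v => by
    simp only [hπ, LinearMap.smul_apply, LinearMap.sum_apply, LinearMap.comp_apply]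
    exact L.smul_mem _ (L.sum_mem fun g _ => hL g _ (hqL _))
  have hπid : ∀ x ∈ L, π x = x := fun x hx => by
    have e : ∀ g : G, ρ g (q (ρ g⁻¹ x)) = x := fun g => by
      rw [hq _ (hL g⁻¹ x hx), ρ.self_inv_apply]
    simp only [hπ, LinearMap.smul_apply, LinearMap.sum_apply, LinearMap.comp_apply, e, Finset.sum_const,
      Finset.card_univ, ← Nat.cast_smul_eq_nsmul F, smul_smul, inv_mul_cancel₀ hG, one_smul]
  have hcomm : ∀ h v, π (ρ h v) = ρ h (π v) := fun h v => by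
    simp only [hπ, LinearMap.smul_apply, LinearMap.sum_apply, LinearMap.comp_apply, map_smul, map_sum]
    congr 1
    refine Fintype.sum_equiv (Equiv.mulLeft h⁻¹) _ _ fun g => ?_
    simp only [Equiv.coe_mulLeft, ← Module.End.mul_apply, ← mul_assoc, ← map_mul]
    simp [mul_assoc]
  refine ⟨X ⊓ LinearMap.ker π, fun g x hx => ⟨hX g x hx.1, ?_⟩, inf_le_left, ?_, ?_⟩
  · rw [SetLike.mem_coe, LinearMap.mem_ker, hcomm, LinearMap.mem_ker.1 hx.2, map_zero]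
  · rw [eq_bot_iff]
    rintro x ⟨hxL, -, hx0⟩
    rw [Submodule.mem_bot, ← hπid x hxL]
    exact hx0
  · refine le_antisymm (sup_le hLX inf_le_left) fun x hx => ?_
    rw [show x = π x + (x - π x) by abel]
    refine Submodule.add_mem_sup (hπL x) ⟨X.sub_mem hx (hLX (hπL x)), ?_⟩
    rw [SetLike.mem_coe, LinearMap.mem_ker, map_sub, hπid _ (hπL x), sub_self]

theorem exists_irr : ∀ (n : ℕ) {X : Submodule F V}, Module.finrank F X ≤ n → Inv ρ X → X ≠ ⊥ →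
    ∃ S, Irr ρ S ∧ S ≤ X := by
  intro n
  induction n with
  | zero => exact fun {X} hn _ hne => absurd (Submodule.finrank_eq_zero.1 (Nat.le_zero.1 hn)) hne
  | succ n ih =>
    intro X hn hX hne
    by_cases h : ∃ U, Inv ρ U ∧ U < X ∧ U ≠ ⊥
    · obtain ⟨U, hU, hlt, hU0⟩ := h
      obtain ⟨S, hS, hle⟩ := ih (Nat.lt_succ_iff.1 (lt_of_lt_of_le (Submodule.finrank_lt_finrank_of_lt hlt) hn)) hU hU0
      exact ⟨S, hS, hle.trans hlt.le⟩
    · refine ⟨X, ⟨hX, hne, fun U hU hUX => ?_⟩, le_rfl⟩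
      by_contra hcon
      push Not at hcon
      exact h ⟨U, hU, lt_of_le_of_ne hUX hcon.2, hcon.1⟩

variable (B : LinearMap.BilinForm F V) (hBinv : ∀ g : G, ∀ x y : V, B (ρ g x) (ρ g y) = B x y)

/-- The left perpendicular of `S` inside `X`. -/
def lperp (X S : Submodule F V) : Submodule F V where
  carrier := {x | x ∈ X ∧ ∀ s ∈ S, B x s = 0}
  add_mem' {a b} ha hb := ⟨X.add_mem ha.1 hb.1, fun s hs => by simp [ha.2 s hs, hb.2 s hs]⟩
  zero_mem' := ⟨X.zero_mem, fun s _ => by simp⟩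
  smul_mem' c {a} ha := ⟨X.smul_mem c ha.1, fun s hs => by simp [ha.2 s hs]⟩

/-- The right perpendicular of `S` inside `X`. -/
def rperp (X S : Submodule F V) : Submodule F V where
  carrier := {x | x ∈ X ∧ ∀ s ∈ S, B s x = 0}
  add_mem' {a b} ha hb := ⟨X.add_mem ha.1 hb.1, fun s hs => by simp [ha.2 s hs, hb.2 s hs]⟩
  zero_mem' := ⟨X.zero_mem, fun s _ => by simp⟩
  smul_mem' c {a} ha := ⟨X.smul_mem c ha.1, fun s hs => by simp [ha.2 s hs]⟩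

include hBinv

theorem inv_lperp {X S : Submodule F V} (hX : Inv ρ X) (hS : Inv ρ S) : Inv ρ (lperp B X S) := fun g x hx => by
  refine ⟨hX g x hx.1, fun s hs => ?_⟩
  rw [← ρ.self_inv_apply g s, hBinv]
  exact hx.2 _ (hS g⁻¹ s hs)

theorem inv_rperp {X S : Submodule F V} (hX : Inv ρ X) (hS : Inv ρ S) : Inv ρ (rperp B X S) := fun g x hx => by
  refine ⟨hX g x hx.1, fun s hs => ?_⟩
  rw [← ρ.self_inv_apply g s, hBinv]
  exact hx.2 _ (hS g⁻¹ s hs)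

omit hBinv in
theorem exists_rep {P : Submodule F V} (hP : ∀ x ∈ P, (∀ y ∈ P, B x y = 0) → x = 0) (f : P →ₗ[F] F) :
    ∃ a ∈ P, ∀ y : P, B a (y : V) = f y := by
  set Φ : P →ₗ[F] (P →ₗ[F] F) := B.compl₁₂ P.subtype P.subtype
  have hinj : Function.Injective Φ := (injective_iff_map_eq_zero Φ).2 fun x hx =>
    Subtype.ext (hP x x.2 fun y hy => LinearMap.congr_fun hx ⟨y, hy⟩)
  obtain ⟨a, ha⟩ := ((LinearMap.injective_iff_surjective_of_finrank_eq_finrank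
    Subspace.dual_finrank_eq.symm).1 hinj) f
  exact ⟨a, a.2, fun y => LinearMap.congr_fun ha y⟩

omit hBinv in
theorem right_nondeg {P : Submodule F V} (hP : ∀ x ∈ P, (∀ y ∈ P, B x y = 0) → x = 0) :
    ∀ y ∈ P, (∀ x ∈ P, B x y = 0) → y = 0 := by
  intro y hy h
  by_contra hne
  obtain ⟨f, hf⟩ : ∃ f : P →ₗ[F] F, f ⟨y, hy⟩ ≠ 0 := by
    by_contra hcon
    push Not at hcon
    exact hne (congrArg Subtype.val ((Module.forall_dual_apply_eq_zero_iff F (⟨y, hy⟩ : P)).1 hcon))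
  obtain ⟨a, ha, haf⟩ := exists_rep B hP f
  exact hf ((haf ⟨y, hy⟩).symm.trans (h a ha))

/-- A nondegenerate invariant subspace splits off. -/
theorem exists_perp {X P : Submodule F V} (hX : Inv ρ X) (hP : Inv ρ P) (hPX : P ≤ X)
    (hXn : ∀ x ∈ X, (∀ y ∈ X, B x y = 0) → x = 0) (hPn : ∀ x ∈ P, (∀ y ∈ P, B x y = 0) → x = 0) :
    ∃ T : Submodule F V, Inv ρ T ∧ P ⊓ T = ⊥ ∧ P ⊔ T = X ∧ ∀ x ∈ T, (∀ y ∈ T, B x y = 0) → x = 0 := by
  have hsup : P ⊔ lperp B X P = X := by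
    refine le_antisymm (sup_le hPX fun x hx => hx.1) fun x hx => ?_
    obtain ⟨a, ha, he⟩ := exists_rep B hPn ((B x).comp P.subtype)
    rw [show x = a + (x - a) by abel]
    refine Submodule.add_mem_sup ha ⟨X.sub_mem hx (hPX ha), fun s hs => ?_⟩
    rw [map_sub, LinearMap.sub_apply, he ⟨s, hs⟩]
    exact sub_self _
  refine ⟨lperp B X P, inv_lperp ρ B hBinv hX hP, ?_, hsup, fun x hx h => ?_⟩
  · rw [eq_bot_iff]
    exact fun x hx => (Submodule.mem_bot F).2 (hPn x hx.1 hx.2.2)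
  · refine hXn x hx.1 fun y hy => ?_
    rw [← hsup] at hy
    obtain ⟨a, ha, b, hb, rfl⟩ := Submodule.mem_sup.1 hy
    rw [map_add, hx.2 a ha, h b hb, add_zero]

/-- An irreducible piece on which the form does not vanish. -/
theorem split_irr {p : ℕ} [Fact p.Prime] [CharP F p] {S : Submodule F V} (hS : Irr ρ S)
    (hne : ∃ s ∈ S, ∃ t ∈ S, B s t ≠ 0) :
    (∀ x ∈ S, (∀ y ∈ S, B x y = 0) → x = 0) ∧ Split ρ p S := by
  have hdeg : ∀ D : LinearMap.BilinForm F V, (∀ g : G, ∀ x y : V, D (ρ g x) (ρ g y) = D x y) →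
      (∃ s ∈ S, ∃ t ∈ S, D s t ≠ 0) → ∀ x ∈ S, (∀ y ∈ S, D x y = 0) → x = 0 := by
    intro D hD ⟨s, hs, t, ht, hst⟩ x hx h
    rcases hS.2.2 (lperp D S S) (inv_lperp ρ D hD hS.1 hS.1) (fun y hy => hy.1) with h1 | h1
    · exact (Submodule.mem_bot F).1 (h1 ▸ (⟨hx, h⟩ : x ∈ lperp D S S))
    · exact absurd ((h1.symm ▸ hs : s ∈ lperp D S S).2 t ht) hst
  have hBn := hdeg B hBinv hne
  refine ⟨hBn, ?_⟩
  obtain ⟨q, hq, -, hqS⟩ := exists_proj (P := S) (T := ⊥) (inf_bot_eq _)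
  have halt : ∀ D : LinearMap.BilinForm F V, (∀ g : G, ∀ x y : V, D (ρ g x) (ρ g y) = D x y) →
      (∀ x ∈ S, D x x = 0) → (∀ x ∈ S, (∀ y ∈ S, D x y = 0) → x = 0) → Split ρ p S := by
    intro D hD hd hn
    refine ⟨S, ⊥, (inf_bot_eq _), (sup_bot_eq _), hS.1, inv_bot ρ,
      ⟨D.compl₁₂ q q, fun x => hd _ (hqS x), fun g x hx y hy => ?_, fun x hx h => hn x hx fun y hy => ?_⟩,
      ⟨0, fun x y => by simp, fun g x _ y _ => by simp, fun x hx _ => (Submodule.mem_bot F).1 hx⟩,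
      fun _ g w hw => fixed_bot ρ g hw⟩
    · rw [LinearMap.compl₁₂_apply, LinearMap.compl₁₂_apply, hq _ (hS.1 g x hx), hq _ (hS.1 g y hy), hD,
        hq x hx, hq y hy]
    · have := h y hy
      rwa [LinearMap.compl₁₂_apply, hq x hx, hq y hy] at this
  by_cases hsymm : ∀ x ∈ S, ∀ y ∈ S, B x y = B y x
  · by_cases hd : ∀ x ∈ S, B x x = 0
    · exact halt B hBinv hd hBn
    refine ⟨⊥, S, (bot_inf_eq _), (bot_sup_eq _), inv_bot ρ, hS.1,
      ⟨0, fun x => by simp, fun g x _ y _ => by simp, fun x hx _ => (Submodule.mem_bot F).1 hx⟩,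
      ⟨B.compl₁₂ q q, fun x y => hsymm _ (hqS x) _ (hqS y), fun g x hx y hy => ?_, fun x hx h => ?_⟩,
      fun hp g x hx => ?_⟩
    · rw [LinearMap.compl₁₂_apply, LinearMap.compl₁₂_apply, hq _ (hS.1 g x hx), hq _ (hS.1 g y hy), hBinv,
        hq x hx, hq y hy]
    · refine hBn x hx fun y hy => ?_
      have := h y hy
      rwa [LinearMap.compl₁₂_apply, hq x hx, hq y hy] at this
    · subst hp
      have h2 : ∀ z : F, z + z = 0 := CharTwo.add_self_eq_zero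
      let K : Submodule F V :=
        { carrier := {x | x ∈ S ∧ B x x = 0}
          add_mem' := fun {a b} ha hb => ⟨S.add_mem ha.1 hb.1, by
            simp [ha.2, hb.2, hsymm b hb.1 a ha.1, h2]⟩
          zero_mem' := ⟨S.zero_mem, by simp⟩
          smul_mem' := fun c {a} ha => ⟨S.smul_mem c ha.1, by simp [ha.2]⟩ }
      rcases hS.2.2 K (fun g a ha => ⟨hS.1 g a ha.1, by rw [hBinv]; exact ha.2⟩) (fun a ha => ha.1) with hK | hK
      · have hmem : ρ g x - x ∈ K := ⟨S.sub_mem (hS.1 g x hx) hx, by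
          simp [hBinv, hsymm x hx _ (hS.1 g x hx), CharTwo.sub_eq_add]
          linear_combination h2 (B x x) + h2 (B (ρ g x) x)⟩
        exact sub_eq_zero.1 ((Submodule.mem_bot F).1 (hK ▸ hmem))
      · exact absurd (fun a ha => (hK.symm ▸ ha : a ∈ K).2) hd
  · push Not at hsymm
    obtain ⟨s, hs, t, ht, hst⟩ := hsymm
    refine halt (B - B.flip) (fun g x y => by simp [hBinv]) (fun x _ => by simp) (hdeg _ (fun g x y => by
      simp [hBinv]) ⟨s, hs, t, ht, ?_⟩)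
    simpa [sub_eq_zero] using hst

/-- Two irreducible isotropic pieces paired on both sides. -/
theorem split_pair {p : ℕ} {S S₃ : Submodule F V} (hS : Irr ρ S) (hS₃ : Irr ρ S₃)
    (h0 : ∀ s ∈ S, ∀ t ∈ S, B s t = 0) (h3 : ∀ s ∈ S₃, ∀ t ∈ S₃, B s t = 0)
    (hl : ∃ t ∈ S₃, ∃ s ∈ S, B t s ≠ 0) (hr : ∃ t ∈ S₃, ∃ s ∈ S, B s t ≠ 0) :
    (∀ x ∈ S ⊔ S₃, (∀ y ∈ S ⊔ S₃, B x y = 0) → x = 0) ∧ Inv ρ (S ⊔ S₃) ∧ Split ρ p (S ⊔ S₃) := by
  have kl : ∀ t ∈ S₃, (∀ s ∈ S, B t s = 0) → t = 0 := by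
    intro t ht h
    rcases hS₃.2.2 (lperp B S₃ S) (inv_lperp ρ B hBinv hS₃.1 hS.1) (fun y hy => hy.1) with h1 | h1
    · exact (Submodule.mem_bot F).1 (h1 ▸ (⟨ht, h⟩ : t ∈ lperp B S₃ S))
    · obtain ⟨t', ht', s, hs, hne⟩ := hl
      exact absurd ((h1.symm ▸ ht' : t' ∈ lperp B S₃ S).2 s hs) hne
  have ks : ∀ s ∈ S, (∀ t ∈ S₃, B s t = 0) → s = 0 := by
    intro s hs h
    rcases hS.2.2 (lperp B S S₃) (inv_lperp ρ B hBinv hS.1 hS₃.1) (fun y hy => hy.1) with h1 | h1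
    · exact (Submodule.mem_bot F).1 (h1 ▸ (⟨hs, h⟩ : s ∈ lperp B S S₃))
    · obtain ⟨t, ht, s', hs', hne⟩ := hr
      exact absurd ((h1.symm ▸ hs' : s' ∈ lperp B S S₃).2 t ht) hne
  have ks' : ∀ s ∈ S, (∀ t ∈ S₃, B t s = 0) → s = 0 := by
    intro s hs h
    rcases hS.2.2 (rperp B S S₃) (inv_rperp ρ B hBinv hS.1 hS₃.1) (fun y hy => hy.1) with h1 | h1
    · exact (Submodule.mem_bot F).1 (h1 ▸ (⟨hs, h⟩ : s ∈ rperp B S S₃))
    · obtain ⟨t, ht, s', hs', hne⟩ := hl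
      exact absurd ((h1.symm ▸ hs' : s' ∈ rperp B S S₃).2 t ht) hne
  have hd : S ⊓ S₃ = ⊥ := eq_bot_iff.2 fun x hx =>
    (Submodule.mem_bot F).2 (kl x hx.2 fun s hs => h0 x hx.1 s hs)
  have hinv : Inv ρ (S ⊔ S₃) := fun g x hx => by
    obtain ⟨a, ha, b, hb, rfl⟩ := Submodule.mem_sup.1 hx
    rw [map_add]
    exact Submodule.add_mem_sup (hS.1 g a ha) (hS₃.1 g b hb)
  refine ⟨fun x hx h => ?_, hinv, ?_⟩
  · obtain ⟨a, ha, b, hb, rfl⟩ := Submodule.mem_sup.1 hx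
    have hb0 : b = 0 := kl b hb fun s hs => by
      have := h s (Submodule.mem_sup_left hs)
      rwa [map_add, LinearMap.add_apply, h0 a ha s hs, zero_add] at this
    subst hb0
    have ha0 : a = 0 := ks a ha fun t ht => by simpa using h t (Submodule.mem_sup_right ht)
    rw [ha0, add_zero]
  obtain ⟨q, hq, hq0, hqS⟩ := exists_proj hd
  obtain ⟨r, hr', hr0, hrS⟩ := exists_proj (P := S₃) (T := S) (by rw [inf_comm]; exact hd)
  refine ⟨S ⊔ S₃, ⊥, (inf_bot_eq _), (sup_bot_eq _), hinv, inv_bot ρ,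
    ⟨B.compl₁₂ r q - (B.compl₁₂ r q).flip, fun x => by simp, fun g x hx y hy => ?_, fun x hx h => ?_⟩,
    ⟨0, fun x y => by simp, fun g x _ y _ => by simp, fun x hx _ => (Submodule.mem_bot F).1 hx⟩,
    fun _ g w hw => fixed_bot ρ g hw⟩
  · have hc : ∀ z ∈ S ⊔ S₃, q (ρ g z) = ρ g (q z) ∧ r (ρ g z) = ρ g (r z) := by
      intro z hz
      obtain ⟨a, ha, b, hb, rfl⟩ := Submodule.mem_sup.1 hz
      simp [hq a ha, hq0 b hb, hr' b hb, hr0 a ha, hq _ (hS.1 g a ha), hq0 _ (hS₃.1 g b hb),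
        hr' _ (hS₃.1 g b hb), hr0 _ (hS.1 g a ha)]
    obtain ⟨x1, x2⟩ := hc x hx
    obtain ⟨y1, y2⟩ := hc y hy
    simp [x1, x2, y1, y2, hBinv]
  · obtain ⟨a, ha, b, hb, rfl⟩ := Submodule.mem_sup.1 hx
    have hb0 : b = 0 := kl b hb fun s hs => by
      simpa [hq s hs, hr0 s hs, hq a ha, hq0 b hb, hr' b hb, hr0 a ha] using h s (Submodule.mem_sup_left hs)
    have ha0 : a = 0 := ks' a ha fun t ht => by
      simpa [hq0 t ht, hr' t ht, hq a ha, hq0 b hb, hr' b hb, hr0 a ha] using h t (Submodule.mem_sup_right ht)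
    rw [ha0, hb0, add_zero]

/-- An irreducible subspace paired on both sides with a given isotropic one. -/
theorem exists_partner [Fintype G] (hG : (Fintype.card G : F) ≠ 0) {X S : Submodule F V} (hX : Inv ρ X)
    (hXn : ∀ x ∈ X, (∀ y ∈ X, B x y = 0) → x = 0) (hS : Irr ρ S) (hSX : S ≤ X) :
    ∃ S₃, Irr ρ S₃ ∧ S₃ ≤ X ∧ (∃ t ∈ S₃, ∃ s ∈ S, B t s ≠ 0) ∧ ∃ t ∈ S₃, ∃ s ∈ S, B s t ≠ 0 := by
  have hL : lperp B X S ≠ X := fun h => hS.2.1 ((Submodule.eq_bot_iff S).2 fun s hs =>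
    right_nondeg B hXn s (hSX hs) fun x hx => (h.ge hx).2 s hs)
  have hR : rperp B X S ≠ X := fun h => hS.2.1 ((Submodule.eq_bot_iff S).2 fun s hs =>
    hXn s (hSX hs) fun x hx => (h.ge hx).2 s hs)
  obtain ⟨C, hC, hCX, hCd, hCs⟩ := exists_compl ρ hG (inv_lperp ρ B hBinv hX hS.1) hX (fun x hx => hx.1)
  obtain ⟨S₁, hS₁, hS₁C⟩ := exists_irr ρ _ le_rfl hC fun h => hL (by rw [h, sup_bot_eq] at hCs; exact hCs)
  obtain ⟨C', hC', hCX', hCd', hCs'⟩ := exists_compl ρ hG (inv_rperp ρ B hBinv hX hS.1) hX (fun x hx => hx.1)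
  obtain ⟨S₂, hS₂, hS₂C⟩ := exists_irr ρ _ le_rfl hC' fun h => hR (by rw [h, sup_bot_eq] at hCs'; exact hCs')
  have k1 : ∀ t ∈ S₁, (∀ s ∈ S, B t s = 0) → t = 0 := fun t ht h =>
    (Submodule.mem_bot F).1 (hCd ▸ ⟨⟨hCX (hS₁C ht), h⟩, hS₁C ht⟩)
  have k2 : ∀ t ∈ S₂, (∀ s ∈ S, B s t = 0) → t = 0 := fun t ht h =>
    (Submodule.mem_bot F).1 (hCd' ▸ ⟨⟨hCX' (hS₂C ht), h⟩, hS₂C ht⟩)
  have n1 : ∃ t ∈ S₁, ∃ s ∈ S, B t s ≠ 0 := by
    by_contra hcon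
    push Not at hcon
    exact hS₁.2.1 ((Submodule.eq_bot_iff _).2 fun t ht => k1 t ht (hcon t ht))
  have n2 : ∃ t ∈ S₂, ∃ s ∈ S, B s t ≠ 0 := by
    by_contra hcon
    push Not at hcon
    exact hS₂.2.1 ((Submodule.eq_bot_iff _).2 fun t ht => k2 t ht (hcon t ht))
  by_cases h1 : ∃ t ∈ S₁, ∃ s ∈ S, B s t ≠ 0
  · exact ⟨S₁, hS₁, hS₁C.trans hCX, n1, h1⟩
  by_cases h2 : ∃ t ∈ S₂, ∃ s ∈ S, B t s ≠ 0
  · exact ⟨S₂, hS₂, hS₂C.trans hCX', h2, n2⟩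
  push Not at h1 h2
  have kS : ∀ s ∈ S, (∀ t ∈ S₂, B s t = 0) → s = 0 := by
    intro s hs h
    rcases hS.2.2 (lperp B S S₂) (inv_lperp ρ B hBinv hS.1 hS₂.1) (fun y hy => hy.1) with e | e
    · exact (Submodule.mem_bot F).1 (e ▸ (⟨hs, h⟩ : s ∈ lperp B S S₂))
    · obtain ⟨t, ht, s', hs', hne⟩ := n2
      exact absurd ((e.symm ▸ hs' : s' ∈ lperp B S S₂).2 t ht) hne
  set Λ : S₂ →ₗ[F] (S →ₗ[F] F) := (B.flip).compl₁₂ S₂.subtype S.subtype with hΛ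
  have hΛi : Function.Injective Λ := (injective_iff_map_eq_zero Λ).2 fun u hu =>
    Subtype.ext (k2 u u.2 fun s hs => LinearMap.congr_fun hu ⟨s, hs⟩)
  have hΛs : Function.Surjective Λ := by
    refine (LinearMap.injective_iff_surjective_of_finrank_eq_finrank (le_antisymm ?_ ?_)).1 hΛi
    · exact LinearMap.finrank_le_finrank_of_injective hΛi
    · have hi : Function.Injective (B.compl₁₂ S.subtype S₂.subtype : S →ₗ[F] (S₂ →ₗ[F] F)) :=
        (injective_iff_map_eq_zero _).2 fun s hs => Subtype.ext (kS s s.2 fun t ht => LinearMap.congr_fun hs ⟨t, ht⟩)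
      have := LinearMap.finrank_le_finrank_of_injective hi
      rw [Subspace.dual_finrank_eq] at this
      rwa [Subspace.dual_finrank_eq]
  set φ : S₁ →ₗ[F] S₂ := (LinearEquiv.ofBijective Λ ⟨hΛi, hΛs⟩).symm.toLinearMap.comp
    (B.compl₁₂ S₁.subtype S.subtype) with hφ
  have hφs : ∀ t : S₁, ∀ s ∈ S, B s (φ t : V) = B t s := fun t s hs => by
    have h := (LinearEquiv.ofBijective Λ ⟨hΛi, hΛs⟩).apply_symm_apply (B.compl₁₂ S₁.subtype S.subtype t)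
    exact LinearMap.congr_fun h ⟨s, hs⟩
  have hφg : ∀ g : G, ∀ t : S₁, (φ ⟨ρ g t, hS₁.1 g t t.2⟩ : V) = ρ g (φ t) := fun g t => by
    refine sub_eq_zero.1 (k2 _ (S₂.sub_mem (φ _).2 (hS₂.1 g _ (φ t).2)) fun s hs => ?_)
    rw [map_sub, hφs _ s hs, sub_eq_zero]
    conv_lhs => rw [← ρ.self_inv_apply g s]
    conv_rhs => rw [← ρ.self_inv_apply g s]
    rw [hBinv, hBinv, hφs _ _ (hS.1 g⁻¹ s hs)]
  set ι : S₁ →ₗ[F] V := S₁.subtype + S₂.subtype.comp φ with hι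
  have hιl : ∀ t : S₁, ∀ s ∈ S, B (ι t) s = B t s := fun t s hs => by
    simp [hι, h2 _ (φ t).2 s hs]
  have hιr : ∀ t : S₁, ∀ s ∈ S, B s (ι t) = B t s := fun t s hs => by
    simp [hι, h1 _ t.2 s hs, hφs t s hs]
  have hιg : ∀ g : G, ∀ t : S₁, ρ g (ι t) = ι ⟨ρ g t, hS₁.1 g t t.2⟩ := fun g t => by
    simp [hι, hφg]
  obtain ⟨t₀, ht₀, s₀, hs₀, hne⟩ := n1
  refine ⟨LinearMap.range ι, ⟨?_, ?_, fun U hU hUle => ?_⟩, ?_,
    ⟨ι ⟨t₀, ht₀⟩, ⟨_, rfl⟩, s₀, hs₀, by rwa [hιl _ s₀ hs₀]⟩,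
    ⟨ι ⟨t₀, ht₀⟩, ⟨_, rfl⟩, s₀, hs₀, by rwa [hιr _ s₀ hs₀]⟩⟩
  · rintro g _ ⟨t, rfl⟩
    exact ⟨_, (hιg g t).symm⟩
  · intro h
    have : ι ⟨t₀, ht₀⟩ = 0 := (Submodule.mem_bot F).1 (h ▸ ⟨_, rfl⟩)
    exact hne (by rw [← hιl ⟨t₀, ht₀⟩ s₀ hs₀, this]; simp)
  · set U₁ : Submodule F V := (U.comap ι).map S₁.subtype with hU₁
    have hU₁i : Inv ρ U₁ := by
      rintro g _ ⟨t, ht, rfl⟩
      refine ⟨⟨ρ g t, hS₁.1 g t t.2⟩, ?_, rfl⟩
      show ι _ ∈ U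
      rw [← hιg]
      exact hU g _ ht
    rcases hS₁.2.2 U₁ hU₁i (Submodule.map_subtype_le _ _) with e | e
    · refine Or.inl (eq_bot_iff.2 fun u hu => ?_)
      obtain ⟨t, rfl⟩ := hUle hu
      have : (t : V) ∈ U₁ := ⟨t, hu, rfl⟩
      rw [e, Submodule.mem_bot] at this
      rw [show t = 0 from Subtype.ext this, map_zero]
      exact Submodule.zero_mem _
    · refine Or.inr (le_antisymm hUle ?_)
      rintro _ ⟨t, rfl⟩
      obtain ⟨t', ht', he⟩ : (t : V) ∈ U₁ := e.symm ▸ t.2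
      obtain rfl : t' = t := Subtype.ext he
      exact ht'
  · rintro _ ⟨t, rfl⟩
    exact X.add_mem (hCX (hS₁C t.2)) (hCX' (hS₂C (φ t).2))

/-- Every nondegenerate invariant subspace splits. -/
theorem split_of_nondeg [Fintype G] {p : ℕ} [Fact p.Prime] [CharP F p] (hG : (Fintype.card G : F) ≠ 0) :
    ∀ (n : ℕ) {X : Submodule F V}, Module.finrank F X ≤ n → Inv ρ X →
      (∀ x ∈ X, (∀ y ∈ X, B x y = 0) → x = 0) → Split ρ p X := by
  intro n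
  induction n with
  | zero =>
    intro X hn _ _
    rw [Submodule.finrank_eq_zero.1 (Nat.le_zero.1 hn)]
    exact split_bot ρ p
  | succ n ih =>
    intro X hn hX hXn
    by_cases hX0 : X = ⊥
    · rw [hX0]; exact split_bot ρ p
    have step : ∀ P : Submodule F V, P ≠ ⊥ → Inv ρ P → P ≤ X → (∀ x ∈ P, (∀ y ∈ P, B x y = 0) → x = 0) →
        Split ρ p P → Split ρ p X := by
      intro P hP0 hP hPX hPn hsp
      obtain ⟨T, hT, hd, hs, hTn⟩ := exists_perp ρ B hBinv hX hP hPX hXn hPn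
      have hlt : T < X := by
        refine lt_of_le_of_ne (hs ▸ le_sup_right) fun h => hP0 ?_
        rwa [h, inf_eq_left.2 hPX] at hd
      rw [← hs]
      exact split_sup ρ hd hsp (ih (Nat.lt_succ_iff.1 (lt_of_lt_of_le (Submodule.finrank_lt_finrank_of_lt hlt) hn)) hT hTn)
    by_cases hA : ∃ S, Irr ρ S ∧ S ≤ X ∧ ∃ s ∈ S, ∃ t ∈ S, B s t ≠ 0
    · obtain ⟨S, hS, hSX, hne⟩ := hA
      obtain ⟨h1, h2⟩ := split_irr ρ B hBinv (p := p) hS hne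
      exact step S hS.2.1 hS.1 hSX h1 h2
    · push Not at hA
      obtain ⟨S, hS, hSX⟩ := exists_irr ρ _ le_rfl hX hX0
      obtain ⟨S₃, hS₃, hS₃X, hl, hr⟩ := exists_partner ρ B hBinv hG hX hXn hS hSX
      obtain ⟨h1, h2, h3⟩ := split_pair ρ B hBinv (p := p) hS hS₃ (hA S hS hSX) (hA S₃ hS₃ hS₃X) hl hr
      exact step _ (ne_bot_of_le_ne_bot hS.2.1 le_sup_left) h2 (sup_le hSX hS₃X) h1 h3

end CfsgLib.CoprimeForms
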